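-- Team project BRA (S4484): package [B2] (helper11).
import Mathlib
import Cfsg.Agent.Lib.Helper95.BRA.Defs

/-!
# BRA [B2]: a projection commuting with its conjugate under a unitary whose numerical range
avoids `0` commutes with the unitary
-/

set_option autoImplicit false

open scoped Matrix ComplexConjugate

namespace Cfsg.Agent.Lib.Helper11.BRA

open Cfsg.Agent.Lib.Helper95.BRA

/-- a matrix killing every vector is zero -/
theorem mat_eq_zero_of_mulVec {n : ℕ} (M : Matrix (Fin n) (Fin n) ℂ)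
    (h : ∀ v : Fin n → ℂ, M *ᵥ v = 0) : M = 0 := by
  ext i j
  have := congrFun (h (Pi.single j 1)) i
  simpa using this

/-- [B2] -/
theorem pkgB2 : PkgB2 := by
  intro n A Q hA hQh hQQ hnr hcomm
  obtain ⟨Q', hQ'⟩ : ∃ Q' : Matrix (Fin n) (Fin n) ℂ, Q' = A * Q * Aᴴ := ⟨_, rfl⟩
  rw [← hQ'] at hcomm
  have hQ'Q' : Q' * Q' = Q' := by
    rw [hQ']
    calc A * Q * Aᴴ * (A * Q * Aᴴ) = A * Q * (Aᴴ * A) * Q * Aᴴ := by
          simp only [Matrix.mul_assoc]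
      _ = A * Q * Aᴴ := by rw [hA, Matrix.mul_one, Matrix.mul_assoc A Q Q, hQQ]
  have hAQ' : Aᴴ * Q' = Q * Aᴴ := by
    rw [hQ', ← Matrix.mul_assoc, ← Matrix.mul_assoc, hA, Matrix.one_mul]
  have hadj : ∀ w : Fin n → ℂ, star w ⬝ᵥ (A *ᵥ w) = star (Aᴴ *ᵥ w) ⬝ᵥ w := by
    intro w
    rw [Matrix.dotProduct_mulVec, Matrix.star_mulVec, Matrix.conjTranspose_conjTranspose]
  have hherm : ∀ u w : Fin n → ℂ, star (Q *ᵥ u) ⬝ᵥ w = star u ⬝ᵥ (Q *ᵥ w) := by
    intro u w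
    rw [Matrix.dotProduct_mulVec, Matrix.star_mulVec, hQh]
  have L1 : ∀ w : Fin n → ℂ, Q *ᵥ w = w → Q' *ᵥ w = 0 → w = 0 := by
    intro w h1 h2
    by_contra hw
    apply hnr w hw
    have e : Q *ᵥ (Aᴴ *ᵥ w) = 0 := by
      rw [Matrix.mulVec_mulVec, ← hAQ', ← Matrix.mulVec_mulVec, h2, Matrix.mulVec_zero]
    rw [hadj]
    nth_rewrite 2 [← h1]
    rw [← hherm, e, star_zero, zero_dotProduct]
  have L2 : ∀ w : Fin n → ℂ, Q' *ᵥ w = w → Q *ᵥ w = 0 → w = 0 := by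
    intro w h1 h2
    by_contra hw
    apply hnr w hw
    have e : Q *ᵥ (Aᴴ *ᵥ w) = Aᴴ *ᵥ w := by
      rw [Matrix.mulVec_mulVec, ← hAQ', ← Matrix.mulVec_mulVec, h1]
    rw [hadj, ← e, hherm, h2, dotProduct_zero]
  have h1 : Q * (1 - Q') = 0 := by
    apply mat_eq_zero_of_mulVec
    intro v
    apply L1
    · rw [Matrix.mulVec_mulVec, ← Matrix.mul_assoc, hQQ]
    · rw [Matrix.mulVec_mulVec, ← Matrix.mul_assoc, ← hcomm, Matrix.mul_assoc, Matrix.mul_sub,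
        Matrix.mul_one, hQ'Q', sub_self, Matrix.mul_zero, Matrix.zero_mulVec]
  have h2 : Q' * (1 - Q) = 0 := by
    apply mat_eq_zero_of_mulVec
    intro v
    apply L2
    · rw [Matrix.mulVec_mulVec, ← Matrix.mul_assoc, hQ'Q']
    · rw [Matrix.mulVec_mulVec, ← Matrix.mul_assoc, hcomm, Matrix.mul_assoc, Matrix.mul_sub,
        Matrix.mul_one, hQQ, sub_self, Matrix.mul_zero, Matrix.zero_mulVec]
  have e1 : Q = Q * Q' := by
    rw [Matrix.mul_sub, Matrix.mul_one, sub_eq_zero] at h1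
    exact h1
  have e2 : Q' = Q' * Q := by
    rw [Matrix.mul_sub, Matrix.mul_one, sub_eq_zero] at h2
    exact h2
  have e3 : Q' = Q := by rw [e2, ← hcomm, ← e1]
  calc A * Q = A * Q * (Aᴴ * A) := by rw [hA, Matrix.mul_one]
    _ = Q' * A := by rw [hQ']; simp only [Matrix.mul_assoc]
    _ = Q * A := by rw [e3]

end Cfsg.Agent.Lib.Helper11.BRA
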